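import Cfsg.Agent.Golay.M24
import Cfsg.Agent.H29.GolayRigid.Data

/-!
The checker for the rigidity certificates.
-/

set_option autoImplicit false
set_option maxRecDepth 20000

namespace CfsgLib.H29.GolayRigid

open CfsgLib.Golay

/-- A code number as a table. -/
def dec (n : ℕ) : List ℕ := (List.range 24).map fun i => n / 32 ^ i % 32

/-- The representative of a class modulo the all-ones mask. -/
def canon (m : ℕ) : ℕ := bif m.testBit 23 then m ^^^ 16777215 else m

/-- The type of a class. -/
def ty (m : ℕ) : ℕ := min (popc m) (24 - popc m)

/-- Canonical code masks. -/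
def classes : List ℕ := codeList.filter fun m => !(m.testBit 23)

/-- The span of earlier masks. -/
def spanList : List ℕ → List ℕ
  | [] => [0]
  | b :: r => spanList r ++ (spanList r).map fun x => b ^^^ x

/-- The possible images. -/
def cands (prev : List ℕ) (b : ℕ) : List ℕ :=
  let P := (spanList prev).map fun s => (s, ty (b ^^^ s))
  classes.filter fun v => P.all fun p => Nat.beq (ty (v ^^^ p.1)) p.2

/-- Equality of lists of numbers. -/
def eqList : List ℕ → List ℕ → Bool
  | [], [] => true
  | a :: r, b :: s => Nat.beq a b && eqList r s
  | _, _ => false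

/-- One step. -/
def stepOk (prev : List ℕ) (L : ℕ × List ℕ) : Bool :=
  inCode L.1 && Nat.blt L.1 16777216 &&
  eqList (cands prev L.1) (L.2.map fun n => canon (actTab (dec n) L.1)) &&
  L.2.all fun n => validTab (dec n) && presTab (dec n) &&
    prev.all fun b => Nat.beq (canon (actTab (dec n) b)) (canon b)

/-- All steps. -/
def allOk : List ℕ → List (ℕ × List ℕ) → Bool
  | _, [] => true
  | prev, L :: r => stepOk prev L && allOk (L.1 :: prev) r

theorem all_ok : allOk [] levs = true := by decide +kernel

theorem span_ok : (basis.all fun b => (spanList ((levs.map Prod.fst).reverse)).any fun s =>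
    Nat.beq (canon b.2) (canon s)) = true := by decide +kernel

end CfsgLib.H29.GolayRigid
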