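import Cfsg.Agent.H29.GolayRigid.Check

/-!
Rigidity of the code modulo the all-ones word.
-/

set_option autoImplicit false

namespace CfsgLib.H29.GolayRigid

open Cfsg CfsgLib.Golay
open scoped Pointwise

/-- A code mask. -/
def In (m : ℕ) : Prop := inCode m = true ∧ m < 2 ^ 24

theorem In.xor {a b : ℕ} (ha : In a) (hb : In b) : In (a ^^^ b) :=
  ⟨inCode_xor ha.1 hb.1, Nat.xor_lt_two_pow ha.2 hb.2⟩

theorem In_zero : In 0 := ⟨by decide +kernel, by norm_num⟩

theorem In_all : In 16777215 := ⟨by decide +kernel, by norm_num⟩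

theorem xor_all_all (m : ℕ) : m ^^^ 16777215 ^^^ 16777215 = m := by
  rw [Nat.xor_assoc, Nat.xor_self, Nat.xor_zero]

theorem canon_cases (m : ℕ) : canon m = m ∨ canon m = m ^^^ 16777215 := by
  unfold canon
  cases m.testBit 23
  · exact Or.inl rfl
  · exact Or.inr rfl

theorem canon_flip (m : ℕ) : canon (m ^^^ 16777215) = canon m := by
  unfold canon
  rw [Nat.testBit_xor, show Nat.testBit 16777215 23 = true from by decide +kernel]
  cases m.testBit 23
  · simp [xor_all_all]
  · simp

theorem canon_eq_iff {a b : ℕ} : canon a = canon b ↔ a = b ∨ a = b ^^^ 16777215 := by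
  constructor
  · intro h
    rcases canon_cases a with ha | ha <;> rcases canon_cases b with hb | hb <;> rw [ha, hb] at h
    · exact Or.inl h
    · exact Or.inr h
    · exact Or.inr (by rw [← h, xor_all_all])
    · exact Or.inl (by rw [← xor_all_all a, h, xor_all_all])
  · rintro (rfl | rfl)
    · rfl
    · exact canon_flip b

theorem canon_xor {a b c d : ℕ} (h : canon a = canon c) (h' : canon b = canon d) :
    canon (a ^^^ b) = canon (c ^^^ d) := by
  rcases canon_eq_iff.1 h with rfl | rfl <;> rcases canon_eq_iff.1 h' with rfl | rfl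
  · rfl
  · rw [← Nat.xor_assoc, canon_flip]
  · rw [Nat.xor_assoc, Nat.xor_comm 16777215, ← Nat.xor_assoc, canon_flip]
  · congr 1
    apply Nat.eq_of_testBit_eq
    intro i
    simp only [Nat.testBit_xor]
    cases c.testBit i <;> cases d.testBit i <;> cases Nat.testBit 16777215 i <;> rfl

theorem ty_flip {m : ℕ} (hm : m < 2 ^ 24) : ty (m ^^^ 16777215) = ty m := by
  unfold ty
  have e : popc (m ^^^ 16777215) = 24 - popc m := by
    conv_lhs => rw [← mask_toSet hm, ← mask_compl, popc_mask, Finset.card_compl, card_pt, card_toSet hm]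
  have hle : popc m ≤ 24 := by
    rw [← card_toSet hm, ← card_pt]
    exact Finset.card_le_univ _
  rw [e]
  omega

theorem ty_eq_of_canon {a b : ℕ} (hb : b < 2 ^ 24) (h : canon a = canon b) : ty a = ty b := by
  rcases canon_eq_iff.1 h with rfl | rfl
  · rfl
  · exact ty_flip hb

/-- A type preserving linear map fixing the all-ones mask. -/
structure Good (f : ℕ → ℕ) : Prop where
  map_in : ∀ m, In m → In (f m)
  map_xor : ∀ a b, In a → In b → f (a ^^^ b) = f a ^^^ f b
  map_all : f 16777215 = 16777215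
  map_ty : ∀ m, In m → ty (f m) = ty m

/-- The action of a permutation on masks. -/
def actM (σ : Equiv.Perm GolayPt) (m : ℕ) : ℕ := mask (σ • toSet m)

theorem actM_xor (σ : Equiv.Perm GolayPt) {a b : ℕ} (ha : a < 2 ^ 24) (hb : b < 2 ^ 24) :
    actM σ (a ^^^ b) = actM σ a ^^^ actM σ b := by
  unfold actM
  rw [← mask_symmDiff]
  congr 1
  have e : toSet (a ^^^ b) = symmDiff (toSet a) (toSet b) := by
    apply mask_injective
    rw [mask_symmDiff, mask_toSet ha, mask_toSet hb, mask_toSet (Nat.xor_lt_two_pow ha hb)]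
  rw [e]
  exact Finset.smul_finset_symmDiff

theorem actM_all (σ : Equiv.Perm GolayPt) : actM σ 16777215 = 16777215 := by
  unfold actM
  rw [show toSet 16777215 = Finset.univ from mask_injective (by rw [mask_toSet (by norm_num), mask_univ]),
    Finset.smul_finset_univ, mask_univ]

theorem actM_mul (σ τ : Equiv.Perm GolayPt) (m : ℕ) : actM (σ * τ) m = actM σ (actM τ m) := by
  simp only [actM, toSet_mask, mul_smul]

theorem actM_one {m : ℕ} (hm : m < 2 ^ 24) : actM 1 m = m := by
  rw [actM, one_smul, mask_toSet hm]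

theorem actM_tab {g : List ℕ} (hv : validTab g = true) {m : ℕ} (hm : m < 2 ^ 24) :
    actM (permOf g) m = actTab g m := by
  rw [actM, mask_smul hv, mask_toSet hm]

theorem actM_in {σ : Equiv.Perm GolayPt} (hσ : σ ∈ M24) {m : ℕ} (hm : In m) : In (actM σ m) := by
  refine ⟨?_, mask_lt _⟩
  have hw : wordOf (toSet m) ∈ golayCode := by
    rw [mem_code_iff, wmask, support_wordOf, mask_toSet hm.2]; exact hm.1
  have := mem_code_iff.1 ((mem_M24_iff.1 hσ) _ hw)
  rwa [wmask_comp, support_wordOf] at this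

theorem Good.act {f : ℕ → ℕ} (hf : Good f) {σ : Equiv.Perm GolayPt} (hσ : σ ∈ M24) :
    Good (fun m => actM σ (f m)) where
  map_in m hm := actM_in hσ (hf.map_in m hm)
  map_xor a b ha hb := by
    rw [hf.map_xor a b ha hb, actM_xor σ (hf.map_in a ha).2 (hf.map_in b hb).2]
  map_all := by rw [hf.map_all, actM_all]
  map_ty m hm := by
    rw [← hf.map_ty m hm]
    unfold ty actM
    rw [popc_mask, Finset.card_smul_finset, card_toSet (hf.map_in m hm).2]

theorem actM_canon (σ : Equiv.Perm GolayPt) {a b : ℕ} (hb : b < 2 ^ 24) (h : canon a = canon b) :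
    canon (actM σ a) = canon (actM σ b) := by
  rcases canon_eq_iff.1 h with rfl | rfl
  · rfl
  · rw [actM_xor σ hb (by norm_num), actM_all, canon_flip]

theorem eqList_iff : ∀ {a b : List ℕ}, eqList a b = true → a = b
  | [], [], _ => rfl
  | [], _ :: _, h => by simp [eqList] at h
  | _ :: _, [], h => by simp [eqList] at h
  | a :: r, b :: s, h => by
    simp only [eqList, Bool.and_eq_true, Nat.beq_eq] at h
    rw [h.1, eqList_iff h.2]

theorem span_fixed {f : ℕ → ℕ} (hf : Good f) : ∀ (l : List ℕ), (∀ b ∈ l, In b ∧ canon (f b) = canon b) →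
    ∀ s ∈ spanList l, In s ∧ canon (f s) = canon s
  | [], _, s, hs => by
    rw [spanList, List.mem_singleton] at hs
    subst hs
    refine ⟨In_zero, ?_⟩
    have h0 := hf.map_xor 0 0 In_zero In_zero
    rw [Nat.xor_self] at h0
    rw [Nat.xor_self] at h0
    rw [h0]
  | b :: r, h, s, hs => by
    have ih := span_fixed hf r fun a ha => h a (List.mem_cons_of_mem _ ha)
    simp only [spanList, List.mem_append, List.mem_map] at hs
    rcases hs with hs | ⟨x, hx, rfl⟩
    · exact ih s hs
    · obtain ⟨hb, hb'⟩ := h b List.mem_cons_self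
      obtain ⟨hxi, hx'⟩ := ih x hx
      exact ⟨hb.xor hxi, by rw [hf.map_xor b x hb hxi]; exact canon_xor hb' hx'⟩

theorem mem_classes {m : ℕ} (hm : In m) : canon m ∈ classes := by
  rw [classes, List.mem_filter, mem_codeList]
  have hin : In (canon m) := by
    rcases canon_cases m with h | h <;> rw [h]
    exacts [hm, hm.xor In_all]
  refine ⟨⟨hin.1, hin.2⟩, ?_⟩
  unfold canon
  cases h : m.testBit 23
  · simp [h]
  · simp [h, Nat.testBit_xor, show Nat.testBit 16777215 23 = true from by decide +kernel]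

theorem descend : ∀ (L : List (ℕ × List ℕ)) (prev : List ℕ), allOk prev L = true →
    ∀ f, Good f → (∀ b ∈ prev, In b ∧ canon (f b) = canon b) →
    ∃ σ ∈ M24, ∀ b ∈ (L.map Prod.fst).reverse ++ prev,
      In b ∧ canon (actM σ (f b)) = canon b
  | [], prev, _, f, hf, hp => ⟨1, one_mem _, fun b hb => by
      simp only [List.map_nil, List.reverse_nil, List.nil_append] at hb
      exact ⟨(hp b hb).1, by rw [actM_one (hf.map_in b (hp b hb).1).2]; exact (hp b hb).2⟩⟩
  | (b, tabs) :: r, prev, hok, f, hf, hp => by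
    simp only [allOk, stepOk, Bool.and_eq_true, Nat.blt_eq, List.all_eq_true, Nat.beq_eq] at hok
    obtain ⟨⟨⟨⟨hb1, hb2⟩, heq⟩, htabs⟩, hrest⟩ := hok
    have hb : In b := ⟨hb1, hb2⟩
    set v := canon (f b) with hv
    have hmem : v ∈ cands prev b := by
      simp only [cands, List.mem_filter, List.all_eq_true, List.mem_map, Nat.beq_eq]
      refine ⟨mem_classes (hf.map_in b hb), ?_⟩
      rintro _ ⟨s, hs, rfl⟩
      obtain ⟨hsi, hs'⟩ := span_fixed hf prev hp s hs
      have hvc : canon v = canon (f b) := by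
        rw [hv]
        exact canon_eq_iff.2 (canon_cases (f b))
      have e : canon (v ^^^ s) = canon (f (b ^^^ s)) := by
        rw [hf.map_xor b s hb hsi]
        exact canon_xor hvc hs'.symm
      rw [ty_eq_of_canon (hf.map_in _ (hb.xor hsi)).2 e, hf.map_ty _ (hb.xor hsi)]
    rw [eqList_iff heq, List.mem_map] at hmem
    obtain ⟨n, hn, hnv⟩ := hmem
    obtain ⟨⟨hval, hpres⟩, hfix⟩ := htabs n hn
    set g := permOf (dec n) with hg
    have hgM : g ∈ M24 := permOf_mem_M24 hval hpres
    have hf' := hf.act (inv_mem hgM)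
    have hinv : ∀ m, m < 2 ^ 24 → actM g⁻¹ (actM g m) = m := fun m hm => by
      rw [← actM_mul, inv_mul_cancel, actM_one hm]
    have hnext : ∀ c ∈ b :: prev, In c ∧ canon (actM g⁻¹ (f c)) = canon c := by
      intro c hc
      rcases List.mem_cons.1 hc with rfl | hc
      · refine ⟨hb, ?_⟩
        have h1 : canon (f c) = canon (actM g c) := by rw [← hv, ← hnv, actM_tab hval hb.2]
        rw [actM_canon g⁻¹ (actM_in hgM hb).2 h1, hinv _ hb.2]
      · obtain ⟨hci, hc'⟩ := hp c hc
        refine ⟨hci, ?_⟩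
        have h1 : canon (f c) = canon (actM g c) := by rw [hc', actM_tab hval hci.2, hfix c hc]
        rw [actM_canon g⁻¹ (actM_in hgM hci).2 h1, hinv _ hci.2]
    obtain ⟨τ, hτ, hτ'⟩ := descend r (b :: prev) hrest _ hf' hnext
    refine ⟨τ * g⁻¹, mul_mem hτ (inv_mem hgM), fun c hc => ?_⟩
    obtain ⟨h1, h2⟩ := hτ' c (by
      simp only [List.map_cons, List.reverse_cons, List.append_assoc, List.cons_append,
        List.nil_append] at hc
      exact hc)
    exact ⟨h1, by rw [actM_mul]; exact h2⟩

theorem allSums_fixed {f : ℕ → ℕ} (hf : Good f) : ∀ (l : List (ℕ × ℕ)),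
    (∀ a ∈ l, In a.2 ∧ canon (f a.2) = canon a.2) →
    ∀ m ∈ allSums l, In m ∧ canon (f m) = canon m
  | [], _, m, hm => by
    refine span_fixed hf [] (by simp) m ?_
    simpa [allSums, spanList] using hm
  | (p, b) :: r, h, m, hm => by
    have ih := allSums_fixed hf r fun a ha => h a (List.mem_cons_of_mem _ ha)
    simp only [allSums, List.mem_append, List.mem_map] at hm
    rcases hm with hm | ⟨x, hx, rfl⟩
    · exact ih m hm
    · obtain ⟨hb, hb'⟩ := h (p, b) List.mem_cons_self
      obtain ⟨hxi, hx'⟩ := ih x hx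
      exact ⟨hb.xor hxi, by rw [hf.map_xor b x hb hxi]; exact canon_xor hb' hx'⟩

theorem exists_perm {f : ℕ → ℕ} (hf : Good f) :
    ∃ σ ∈ M24, ∀ m, In m → canon (actM σ (f m)) = canon m := by
  obtain ⟨σ, hσ, h⟩ := descend levs [] all_ok f hf (by simp)
  refine ⟨σ, hσ, fun m hm => ?_⟩
  have hg := hf.act hσ
  have hspan := span_fixed hg ((levs.map Prod.fst).reverse) fun b hb =>
    h b (by rw [List.append_nil]; exact hb)
  refine (allSums_fixed hg basis (fun a ha => ?_) m (mem_codeList.2 hm)).2
  have hin : In a.2 := by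
    obtain ⟨w, hw, e⟩ := exists_word_basis a ha
    exact ⟨e ▸ inCode_wmask_of_mem hw, e ▸ mask_lt _⟩
  refine ⟨hin, ?_⟩
  have hs := List.all_eq_true.1 span_ok a ha
  simp only [List.any_eq_true, Nat.beq_eq] at hs
  obtain ⟨s, hs, e⟩ := hs
  obtain ⟨hsi, hs'⟩ := hspan s hs
  rcases canon_eq_iff.1 e with h' | h'
  · rw [h']; exact hs'
  · rw [h', hg.map_xor s 16777215 hsi In_all, hg.map_all, canon_flip, canon_flip]
    exact hs'

theorem canon_word {a b : GolayPt → ZMod 2} (h : canon (wmask a) = canon (wmask b)) :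
    a = b ∨ a = b + fun _ => (1 : ZMod 2) := by
  rcases canon_eq_iff.1 h with h | h
  · exact Or.inl (wmask_injective h)
  · refine Or.inr (wmask_injective ?_)
    rw [wmask_add, h]
    rw [show wmask (fun _ => (1 : ZMod 2) : GolayPt → ZMod 2) = 16777215 from wmask_one]

theorem ty_of_orbit {u w : GolayPt → ZMod 2} {σ : Equiv.Perm GolayPt}
    (h : u = (fun p => w (σ.symm p)) ∨ u = (fun p => w (σ.symm p)) + fun _ => (1 : ZMod 2)) :
    ty (wmask u) = ty (wmask w) := by
  have e : ty (wmask (fun p => w (σ.symm p))) = ty (wmask w) := by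
    unfold ty
    rw [wmask_comp, popc_mask, Finset.card_smul_finset, wmask, popc_mask]
  rcases h with rfl | rfl
  · exact e
  · rw [wmask_add, show wmask (fun _ => (1 : ZMod 2)) = 16777215 from wmask_one, ty_flip (m := wmask _) (mask_lt _), e]

/-- The mask map of a linear automorphism. -/
noncomputable def mk (x : golayCode ≃ₗ[ZMod 2] golayCode) (m : ℕ) : ℕ :=
  Classical.epsilon fun k => ∀ c : golayCode, wmask (c : GolayPt → ZMod 2) = m →
    k = wmask ((x c : golayCode) : GolayPt → ZMod 2)

theorem mem_of_In {m : ℕ} (hm : In m) : wordOf (toSet m) ∈ golayCode := by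
  rw [mem_code_iff, wmask, support_wordOf, mask_toSet hm.2]; exact hm.1

set_option maxHeartbeats 400000 in
theorem main (x : golayCode ≃ₗ[ZMod 2] golayCode)
    (h1 : ∀ e : golayCode, (e : GolayPt → ZMod 2) = (fun _ => (1 : ZMod 2)) → x e = e)
    (horb : ∀ c : golayCode, ∃ σ ∈ M24,
      ((x c : golayCode) : GolayPt → ZMod 2) = (fun p => (c : GolayPt → ZMod 2) (σ.symm p)) ∨
      ((x c : golayCode) : GolayPt → ZMod 2) =
        (fun p => (c : GolayPt → ZMod 2) (σ.symm p)) + fun _ => (1 : ZMod 2)) :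
    ∃ σ ∈ M24, ∀ c : golayCode,
      ((x c : golayCode) : GolayPt → ZMod 2) = (fun p => (c : GolayPt → ZMod 2) (σ.symm p)) ∨
      ((x c : golayCode) : GolayPt → ZMod 2) =
        (fun p => (c : GolayPt → ZMod 2) (σ.symm p)) + fun _ => (1 : ZMod 2) := by
  have hw : ∀ m, In m → wmask (wordOf (toSet m)) = m := fun m hm => wmask_wordOf hm.2
  have hmk : ∀ c : golayCode, mk x (wmask (c : GolayPt → ZMod 2)) =
      wmask ((x c : golayCode) : GolayPt → ZMod 2) := by
    intro c
    exact Classical.epsilon_spec (p := fun k => ∀ d : golayCode,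
      wmask (d : GolayPt → ZMod 2) = wmask (c : GolayPt → ZMod 2) →
      k = wmask ((x d : golayCode) : GolayPt → ZMod 2))
      ⟨_, fun d hd => by rw [Subtype.ext (wmask_injective hd)]⟩ c rfl
  have hform : ∀ m, In m → ∃ c : golayCode, wmask (c : GolayPt → ZMod 2) = m :=
    fun m hm => ⟨⟨_, mem_of_In hm⟩, hw m hm⟩
  have hin : ∀ c : golayCode, In (wmask (c : GolayPt → ZMod 2)) :=
    fun c => ⟨inCode_wmask_of_mem c.2, mask_lt _⟩
  have hgood : Good (mk x) :=
    { map_in := fun m hm => by
        obtain ⟨c, rfl⟩ := hform m hm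
        rw [hmk]; exact hin _
      map_xor := fun a b ha hb => by
        obtain ⟨c, rfl⟩ := hform a ha
        obtain ⟨d, rfl⟩ := hform b hb
        have := hmk (c + d)
        rw [Submodule.coe_add, wmask_add, map_add, Submodule.coe_add, wmask_add] at this
        rw [this, hmk, hmk]
      map_all := by
        obtain ⟨c, hc⟩ := hform _ In_all
        have he : (c : GolayPt → ZMod 2) = fun _ => (1 : ZMod 2) := wmask_injective (hc.trans wmask_one.symm)
        rw [← hc, hmk, h1 c he]
      map_ty := fun m hm => by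
        obtain ⟨c, rfl⟩ := hform m hm
        obtain ⟨σ, -, h⟩ := horb c
        rw [hmk]
        exact ty_of_orbit h }
  obtain ⟨σ, hσ, h⟩ := exists_perm hgood
  refine ⟨σ⁻¹, inv_mem hσ, fun c => ?_⟩
  have h2 := h _ (hin c)
  rw [hmk] at h2
  have h3 := actM_canon σ⁻¹ (hin c).2 h2
  rw [← actM_mul, inv_mul_cancel, actM_one (hin (x c)).2] at h3
  have e : actM σ⁻¹ (wmask (c : GolayPt → ZMod 2)) =
      wmask (fun p => (c : GolayPt → ZMod 2) (σ⁻¹.symm p)) := by
    rw [wmask_comp, actM, wmask, toSet_mask]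
  exact canon_word (h3.trans (congrArg canon e))

end CfsgLib.H29.GolayRigid
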